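import Cfsg.Agent.Lib.Helper99.X3.Defs

set_option autoImplicit false
open scoped MatrixGroups

namespace Cfsg.Agent.Lib.Helper99.X3

variable {F : Type*} [Field F]

local notation "M3" => Matrix (Fin 3) (Fin 3) F

/-- the (unnormalised) component of `w` in the `μ`-eigenspace of `m` -/
def A2c (m : M3) (μ : F) (w : Fin 3 → F) : Fin 3 → F :=
  w + μ ^ 2 • m.mulVec w + μ • m.mulVec (m.mulVec w)

theorem A2c_eig (m : M3) (hm : m ^ 3 = 1) (μ : F) (hμ : μ ^ 3 = 1) (w : Fin 3 → F) :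
    m.mulVec (A2c m μ w) = μ • A2c m μ w := by
  have h3 : m.mulVec (m.mulVec (m.mulVec w)) = w := by
    rw [Matrix.mulVec_mulVec, Matrix.mulVec_mulVec, ← pow_two, ← pow_succ, hm, Matrix.one_mulVec]
  unfold A2c
  rw [Matrix.mulVec_add, Matrix.mulVec_add, Matrix.mulVec_smul, Matrix.mulVec_smul, h3,
    smul_add, smul_add, smul_smul, smul_smul, ← pow_succ', hμ, one_smul, ← pow_two]
  abel

theorem A2c_sum (ω : F) (h0 : 1 + ω + ω ^ 2 = 0) (hω3 : ω ^ 3 = 1) (m : M3) (w : Fin 3 → F) :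
    A2c m 1 w + A2c m ω w + A2c m (ω ^ 2) w = (3 : F) • w := by
  unfold A2c
  have e1 : (w + (1 : F) ^ 2 • m.mulVec w + (1 : F) • m.mulVec (m.mulVec w))
      + (w + ω ^ 2 • m.mulVec w + ω • m.mulVec (m.mulVec w))
      + (w + (ω ^ 2) ^ 2 • m.mulVec w + (ω ^ 2) • m.mulVec (m.mulVec w))
      = (3 : F) • w + ((1 : F) ^ 2 + ω ^ 2 + (ω ^ 2) ^ 2) • m.mulVec w
        + (1 + ω + ω ^ 2) • m.mulVec (m.mulVec w) := by
    module
  have e2 : (1 : F) ^ 2 + ω ^ 2 + (ω ^ 2) ^ 2 = 0 := by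
    linear_combination h0 + ω * hω3
  rw [e1, e2, h0, zero_smul, zero_smul, add_zero, add_zero]

theorem A2c_comm (a z : M3) (hza : z * a = a * z) (α ζ : F) (w : Fin 3 → F)
    (hw : z.mulVec w = ζ • w) : z.mulVec (A2c a α w) = ζ • A2c a α w := by
  have hc : ∀ x, z.mulVec (a.mulVec x) = a.mulVec (z.mulVec x) := fun x => by
    rw [Matrix.mulVec_mulVec, Matrix.mulVec_mulVec, hza]
  unfold A2c
  rw [Matrix.mulVec_add, Matrix.mulVec_add, Matrix.mulVec_smul, Matrix.mulVec_smul, hc, hc, hc, hw,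
    Matrix.mulVec_smul, Matrix.mulVec_smul, smul_add, smul_add,
    smul_comm (α ^ 2) ζ, smul_comm α ζ]

theorem A2 (ω : F) (hω : ω ≠ 1) (hω3 : ω ^ 3 = 1) (a z : M3) (ha : a ^ 3 = 1) (hz : z ^ 3 = 1)
    (hz1 : z ≠ 1) (hza : z * a = a * z) :
    ∃ (v : Fin 3 → F) (α ζ : F), v ≠ 0 ∧ α ^ 3 = 1 ∧ ζ ^ 3 = 1 ∧ ζ ≠ 1 ∧
      a.mulVec v = α • v ∧ z.mulVec v = ζ • v := by
  have h0 : 1 + ω + ω ^ 2 = 0 := by
    have h : (ω - 1) * (1 + ω + ω ^ 2) = 0 := by linear_combination hω3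
    rcases mul_eq_zero.1 h with h | h
    · exact absurd (sub_eq_zero.1 h) hω
    · exact h
  have h3 : (3 : F) ≠ 0 := by
    intro h3
    have h : (ω - 1) ^ 3 = 0 := by linear_combination hω3 + (ω - ω ^ 2) * h3
    exact hω (sub_eq_zero.1 (pow_eq_zero_iff (by norm_num) |>.1 h))
  have hω2 : (ω ^ 2) ^ 3 = 1 := by rw [← pow_mul, mul_comm, pow_mul, hω3, one_pow]
  have hω21 : ω ^ 2 ≠ 1 := by
    intro h
    apply hω
    calc ω = ω ^ 3 * ω := by rw [hω3, one_mul]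
      _ = (ω ^ 2) ^ 2 := by ring
      _ = 1 := by rw [h, one_pow]
  -- step 1
  obtain ⟨u, hu⟩ : ∃ u, z.mulVec u ≠ u := by
    by_contra hcon
    push Not at hcon
    apply hz1
    ext i j
    have := congrFun (hcon (Pi.single j 1)) i
    rw [Matrix.mulVec_single_one] at this
    rw [Matrix.one_apply]
    rw [Pi.single_apply] at this
    exact this
  obtain ⟨ζ, hζ3, hζ1, hw1⟩ : ∃ ζ : F, ζ ^ 3 = 1 ∧ ζ ≠ 1 ∧ A2c z ζ u ≠ 0 := by
    by_contra hcon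
    push Not at hcon
    have e1 := hcon ω hω3 hω
    have e2 := hcon (ω ^ 2) hω2 hω21
    have e3 := A2c_sum ω h0 hω3 z u
    rw [e1, e2, add_zero, add_zero] at e3
    have e4 := A2c_eig z hz 1 (one_pow 3) u
    rw [e3, one_smul, Matrix.mulVec_smul] at e4
    exact hu (smul_right_injective _ h3 e4)
  have hzw := A2c_eig z hz ζ hζ3 u
  set w := A2c z ζ u with hw
  -- step 2
  obtain ⟨α, hα3, hv⟩ : ∃ α : F, α ^ 3 = 1 ∧ A2c a α w ≠ 0 := by
    by_contra hcon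
    push Not at hcon
    have e3 := A2c_sum ω h0 hω3 a w
    rw [hcon 1 (one_pow 3), hcon ω hω3, hcon (ω ^ 2) hω2, add_zero, add_zero] at e3
    rcases smul_eq_zero.1 e3.symm with h | h
    · exact h3 h
    · exact hw1 h
  exact ⟨A2c a α w, α, ζ, hv, hα3, hζ3, hζ1, A2c_eig a ha α hα3 w, A2c_comm a z hza α ζ w hzw⟩

end Cfsg.Agent.Lib.Helper99.X3
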