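import Cfsg.Agent.Lib.Helper99.X3.Defs

set_option autoImplicit false
open scoped MatrixGroups

namespace Cfsg.Agent.Lib.Helper99.X3

variable {F : Type*} [Field F]

local notation "M3" => Matrix (Fin 3) (Fin 3) F

theorem A3 (a b z : M3) (hb : b ^ 3 = 1) (hab : a * b = z * (b * a)) (hzb : z * b = b * z)
    (v : Fin 3 → F) (α ζ : F) (hv : v ≠ 0) (hα : α ≠ 0) (hζ3 : ζ ^ 3 = 1) (hζ : ζ ≠ 1)
    (hav : a.mulVec v = α • v) (hzv : z.mulVec v = ζ • v) :
    ∃ P : GL (Fin 3) F, a = α • ((P : M3) * A0 ζ * ((P⁻¹ : GL (Fin 3) F) : M3)) ∧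
      b = (P : M3) * B0 * ((P⁻¹ : GL (Fin 3) F) : M3) ∧ z = ζ • (1 : M3) := by
  classical
  have hζ0 : ζ ≠ 0 := by
    rintro rfl
    simp at hζ3
  have hζ2 : ζ ^ 2 ≠ 1 := by
    intro h
    apply hζ
    calc ζ = ζ ^ 3 * ζ := by rw [hζ3, one_mul]
      _ = (ζ ^ 2) ^ 2 := by ring
      _ = 1 := by rw [h, one_pow]
  set v1 := b.mulVec v with hv1
  set v2 := b.mulVec v1 with hv2
  have hbv2 : b.mulVec v2 = v := by
    rw [hv2, hv1, Matrix.mulVec_mulVec, Matrix.mulVec_mulVec, ← pow_two, ← pow_succ, hb,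
      Matrix.one_mulVec]
  have hzb' : ∀ x, z.mulVec (b.mulVec x) = b.mulVec (z.mulVec x) := fun x => by
    rw [Matrix.mulVec_mulVec, Matrix.mulVec_mulVec, hzb]
  have hab' : ∀ x, a.mulVec (b.mulVec x) = z.mulVec (b.mulVec (a.mulVec x)) := fun x => by
    rw [Matrix.mulVec_mulVec, Matrix.mulVec_mulVec, Matrix.mulVec_mulVec, hab, Matrix.mul_assoc]
  have hzv1 : z.mulVec v1 = ζ • v1 := by
    rw [hv1, hzb', hzv, Matrix.mulVec_smul]
  have hzv2 : z.mulVec v2 = ζ • v2 := by
    rw [hv2, hzb', hzv1, Matrix.mulVec_smul]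
  have hav1 : a.mulVec v1 = (α * ζ) • v1 := by
    rw [hv1, hab', hav, Matrix.mulVec_smul, Matrix.mulVec_smul, ← hv1, hzv1, smul_smul]
  have hav2 : a.mulVec v2 = (α * ζ ^ 2) • v2 := by
    rw [hv2, hab', hav1, Matrix.mulVec_smul, Matrix.mulVec_smul, ← hv2, hzv2, smul_smul]
    congr 1
    ring
  have hv1ne : v1 ≠ 0 := by
    intro h
    apply hv
    rw [← hbv2, hv2, h, Matrix.mulVec_zero, Matrix.mulVec_zero]
  have hv2ne : v2 ≠ 0 := by
    intro h
    apply hv
    rw [← hbv2, h, Matrix.mulVec_zero]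
  let V : Fin 3 → (Fin 3 → F) := ![v, v1, v2]
  let μ : Fin 3 → F := ![α, α * ζ, α * ζ ^ 2]
  have h01 : α ≠ α * ζ := by
    intro h
    exact hζ (mul_left_cancel₀ hα (by rw [mul_one]; exact h.symm))
  have h02 : α ≠ α * ζ ^ 2 := by
    intro h
    exact hζ2 (mul_left_cancel₀ hα (by rw [mul_one]; exact h.symm))
  have h12 : α * ζ ≠ α * ζ ^ 2 := by
    intro h
    have h1 := mul_left_cancel₀ hα h
    apply hζ
    have h2 : ζ * 1 = ζ * ζ := by rw [mul_one, ← pow_two]; exact h1
    exact (mul_left_cancel₀ hζ0 h2).symm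
  have hμ : Function.Injective μ := by
    intro i j hij
    fin_cases i <;> fin_cases j <;> simp [μ] at hij ⊢
    · exact absurd hij h01
    · exact absurd hij h02
    · exact absurd hij.symm h01
    · rcases hij with h | h
      · exact absurd (congrArg (α * ·) h) h12
      · exact absurd h hα
    · exact absurd hij.symm h02
    · rcases hij with h | h
      · exact absurd (congrArg (α * ·) h).symm h12
      · exact absurd h hα
  have hli : LinearIndependent F V := by
    apply Module.End.eigenvectors_linearIndependent' (Matrix.toLin' a) μ hμ V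
    intro i
    refine ⟨?_, ?_⟩
    · rw [Module.End.mem_eigenspace_iff, Matrix.toLin'_apply]
      fin_cases i
      · exact hav
      · exact hav1
      · exact hav2
    · fin_cases i
      · exact hv
      · exact hv1ne
      · exact hv2ne
  let Pm : M3 := Matrix.of (fun r c => V c r)
  have hU : IsUnit Pm := by
    rw [← Matrix.linearIndependent_cols_iff_isUnit]
    have : Pm.col = V := by
      funext c r
      rfl
    rw [this]
    exact hli
  have hcol : ∀ (m : M3) r c, (m * Pm) r c = (m.mulVec (V c)) r := fun m r c => rfl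
  have haP : a * Pm = α • (Pm * A0 ζ) := by
    ext r c
    rw [hcol, Matrix.smul_apply, A0, Matrix.mul_diagonal]
    fin_cases c
    · show (a.mulVec v) r = _
      rw [hav]
      simp [Pm, V]
    · show (a.mulVec v1) r = _
      rw [hav1]
      simp [Pm, V]
      ring
    · show (a.mulVec v2) r = _
      rw [hav2]
      simp [Pm, V]
      ring
  have hbP : b * Pm = Pm * B0 := by
    ext r c
    rw [hcol, Matrix.mul_apply, Fin.sum_univ_three]
    fin_cases c
    · show (b.mulVec v) r = _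
      simp [Pm, V, B0, ← hv1]
    · show (b.mulVec v1) r = _
      simp [Pm, V, B0, ← hv2]
    · show (b.mulVec v2) r = _
      rw [hbv2]
      simp [Pm, V, B0]
  have hzP : z * Pm = ζ • Pm := by
    ext r c
    rw [hcol, Matrix.smul_apply]
    fin_cases c
    · show (z.mulVec v) r = _
      rw [hzv]
      simp [Pm, V]
    · show (z.mulVec v1) r = _
      rw [hzv1]
      simp [Pm, V]
    · show (z.mulVec v2) r = _
      rw [hzv2]
      simp [Pm, V]
  have h1 : ((hU.unit : GL (Fin 3) F) : M3) = Pm := rfl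
  have h2 : Pm * (((hU.unit)⁻¹ : GL (Fin 3) F) : M3) = 1 := by
    have := Units.mul_inv hU.unit
    rwa [h1] at this
  refine ⟨hU.unit, ?_, ?_, ?_⟩
  · rw [h1, ← Matrix.smul_mul, ← haP, Matrix.mul_assoc, h2, Matrix.mul_one]
  · rw [h1, ← hbP, Matrix.mul_assoc, h2, Matrix.mul_one]
  · calc z = z * (Pm * (((hU.unit)⁻¹ : GL (Fin 3) F) : M3)) := by rw [h2, Matrix.mul_one]
      _ = (ζ • Pm) * (((hU.unit)⁻¹ : GL (Fin 3) F) : M3) := by rw [← Matrix.mul_assoc, hzP]
      _ = ζ • (1 : M3) := by rw [Matrix.smul_mul, h2]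

end Cfsg.Agent.Lib.Helper99.X3
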