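import Cfsg.Agent.Lib.Helper99.X3.Defs

set_option autoImplicit false
open scoped MatrixGroups

namespace Cfsg.Agent.Lib.Helper99.X3

variable {F : Type*} [Field F]

local notation "M3" => Matrix (Fin 3) (Fin 3) F

theorem N1a_sum_zero (ζ : F) (hζ : ζ ≠ 1) (hζ3 : ζ ^ 3 = 1) : 1 + ζ + ζ ^ 2 = 0 := by
  have h : (ζ - 1) * (1 + ζ + ζ ^ 2) = 0 := by linear_combination hζ3
  rcases mul_eq_zero.1 h with h | h
  · exact absurd (sub_eq_zero.1 h) hζ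
  · exact h

theorem N1a_root (ζ : F) (hζ : ζ ≠ 1) (hζ3 : ζ ^ 3 = 1) (x : F) (hx : x ^ 3 = 1) :
    ∃ n : ℕ, x = ζ ^ n := by
  have h0 := N1a_sum_zero ζ hζ hζ3
  have h : (x - 1) * ((x - ζ) * (x - ζ ^ 2)) = 0 := by
    linear_combination hx - hζ3 + (-x ^ 2 + ζ * x) * h0
  rcases mul_eq_zero.1 h with h | h
  · exact ⟨0, by rw [pow_zero]; exact sub_eq_zero.1 h⟩
  rcases mul_eq_zero.1 h with h | h
  · exact ⟨1, by rw [pow_one]; exact sub_eq_zero.1 h⟩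
  · exact ⟨2, sub_eq_zero.1 h⟩

theorem N1a (ζ : F) (hζ : ζ ≠ 1) (hζ3 : ζ ^ 3 = 1) (l : Fin 3 → F) (hl : ∀ i, l i ^ 3 = 1) :
    ∃ k e : ℕ, Matrix.diagonal l * B0 = ζ ^ k • (A0 ζ ^ e * B0 * Matrix.diagonal l) := by
  obtain ⟨n0, h0⟩ := N1a_root ζ hζ hζ3 (l 0) (hl 0)
  obtain ⟨n1, h1⟩ := N1a_root ζ hζ hζ3 (l 1) (hl 1)
  obtain ⟨n2, h2⟩ := N1a_root ζ hζ hζ3 (l 2) (hl 2)
  have h3 : ∀ m : ℕ, ζ ^ (3 * m) = 1 := fun m => by rw [pow_mul, hζ3, one_pow]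
  refine ⟨n0 + 2 * n2, n0 + n1 + n2, ?_⟩
  unfold A0
  rw [Matrix.diagonal_pow]
  ext i j
  rw [Matrix.diagonal_mul, Matrix.smul_apply, Matrix.mul_diagonal, Matrix.diagonal_mul]
  fin_cases i <;> fin_cases j <;> simp [B0, h0, h1, h2]
  · calc ζ ^ n0 = ζ ^ n0 * ζ ^ (3 * n2) := by rw [h3, mul_one]
      _ = ζ ^ (n0 + 2 * n2) * ζ ^ n2 := by rw [← pow_add, ← pow_add]; congr 1; ring
  · calc ζ ^ n1 = ζ ^ n1 * ζ ^ (3 * (n0 + n2)) := by rw [h3, mul_one]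
      _ = ζ ^ (n0 + 2 * n2) * (ζ ^ (n0 + n1 + n2) * ζ ^ n0) := by
        rw [← pow_add, ← pow_add, ← pow_add]; congr 1; ring
  · calc ζ ^ n2 = ζ ^ n2 * ζ ^ (3 * (n0 + n1 + n2)) := by rw [h3, mul_one]
      _ = ζ ^ (n0 + 2 * n2) * ((ζ ^ 2) ^ (n0 + n1 + n2) * ζ ^ n1) := by
        rw [← pow_mul, ← pow_add, ← pow_add, ← pow_add]; congr 1; ring

end Cfsg.Agent.Lib.Helper99.X3
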