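import Cfsg.Agent.Lib.Helper99.X3.Defs
import Cfsg.Prelude.Def_LieClassical
import Cfsg.Agent.Lib.Helper9.AschU.Base
import Cfsg.Agent.Lib.Helper74.X3.U1
import Cfsg.Agent.Lib.Helper74.X3.U3

set_option autoImplicit false
open scoped MatrixGroups

namespace Cfsg.Agent.Lib.Helper99.X3

open Cfsg.Agent.Lib.Helper13 Cfsg.Agent.Lib.Helper9.AschU

variable {F : Type*} [Field F]

local notation "M3" => Matrix (Fin 3) (Fin 3) F

/-- the eigenvector relations for `v, b v, b² v` -/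
theorem A3U_rel (a b z : M3) (hb : b ^ 3 = 1) (hab : a * b = z * (b * a)) (hzb : z * b = b * z)
    (v : Fin 3 → F) (α ζ : F) (hav : a.mulVec v = α • v) (hzv : z.mulVec v = ζ • v) :
    b.mulVec (b.mulVec (b.mulVec v)) = v ∧
    z.mulVec (b.mulVec v) = ζ • b.mulVec v ∧
    z.mulVec (b.mulVec (b.mulVec v)) = ζ • b.mulVec (b.mulVec v) ∧
    a.mulVec (b.mulVec v) = (α * ζ) • b.mulVec v ∧
    a.mulVec (b.mulVec (b.mulVec v)) = (α * ζ ^ 2) • b.mulVec (b.mulVec v) := by
  have hbv2 : b.mulVec (b.mulVec (b.mulVec v)) = v := by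
    rw [Matrix.mulVec_mulVec, Matrix.mulVec_mulVec, ← pow_two, ← pow_succ, hb,
      Matrix.one_mulVec]
  have hzb' : ∀ x, z.mulVec (b.mulVec x) = b.mulVec (z.mulVec x) := fun x => by
    rw [Matrix.mulVec_mulVec, Matrix.mulVec_mulVec, hzb]
  have hab' : ∀ x, a.mulVec (b.mulVec x) = z.mulVec (b.mulVec (a.mulVec x)) := fun x => by
    rw [Matrix.mulVec_mulVec, Matrix.mulVec_mulVec, Matrix.mulVec_mulVec, hab, Matrix.mul_assoc]
  have hzv1 : z.mulVec (b.mulVec v) = ζ • b.mulVec v := by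
    rw [hzb', hzv, Matrix.mulVec_smul]
  have hzv2 : z.mulVec (b.mulVec (b.mulVec v)) = ζ • b.mulVec (b.mulVec v) := by
    rw [hzb', hzv1, Matrix.mulVec_smul]
  have hav1 : a.mulVec (b.mulVec v) = (α * ζ) • b.mulVec v := by
    rw [hab', hav, Matrix.mulVec_smul, Matrix.mulVec_smul, hzv1, smul_smul]
  have hav2 : a.mulVec (b.mulVec (b.mulVec v)) = (α * ζ ^ 2) • b.mulVec (b.mulVec v) := by
    rw [hab', hav1, Matrix.mulVec_smul, Matrix.mulVec_smul, hzv2, smul_smul]
    congr 1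
    ring
  exact ⟨hbv2, hzv1, hzv2, hav1, hav2⟩

/-- the three eigenvalues are distinct -/
theorem A3U_inj (α ζ : F) (hα : α ≠ 0) (hζ3 : ζ ^ 3 = 1) (hζ : ζ ≠ 1) :
    Function.Injective (![α, α * ζ, α * ζ ^ 2] : Fin 3 → F) := by
  have hζ0 : ζ ≠ 0 := by
    rintro rfl
    simp at hζ3
  have hζ2 : ζ ^ 2 ≠ 1 := by
    intro h
    apply hζ
    calc ζ = ζ ^ 3 * ζ := by rw [hζ3, one_mul]
      _ = (ζ ^ 2) ^ 2 := by ring
      _ = 1 := by rw [h, one_pow]
  have h01 : α ≠ α * ζ := by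
    intro h
    exact hζ (mul_left_cancel₀ hα (by rw [mul_one]; exact h.symm))
  have h02 : α ≠ α * ζ ^ 2 := by
    intro h
    exact hζ2 (mul_left_cancel₀ hα (by rw [mul_one]; exact h.symm))
  have h12 : α * ζ ≠ α * ζ ^ 2 := by
    intro h
    have h1 := mul_left_cancel₀ hα h
    apply hζ
    have h2 : ζ * 1 = ζ * ζ := by rw [mul_one, ← pow_two]; exact h1
    exact (mul_left_cancel₀ hζ0 h2).symm
  intro i j hij
  fin_cases i <;> fin_cases j <;> simp at hij ⊢
  · exact absurd hij h01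
  · exact absurd hij h02
  · exact absurd hij.symm h01
  · rcases hij with h | h
    · exact absurd (congrArg (α * ·) h) h12
    · exact absurd h hα
  · exact absurd hij.symm h02
  · rcases hij with h | h
    · exact absurd (congrArg (α * ·) h).symm h12
    · exact absurd h hα

/-- the Gram matrix of `v, b v, b² v` -/
theorem A3U_gram [Fintype F] {q : ℕ} (hF : Fintype.card F = q ^ 2) (hq3 : q % 3 = 2)
    (a b : GL (Fin 3) F) (z : M3)
    (haU : a ∈ Cfsg.GU 3 F q) (hbU : b ∈ Cfsg.GU 3 F q) (hb : (b : M3) ^ 3 = 1)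
    (hab : (a : M3) * (b : M3) = z * ((b : M3) * (a : M3))) (hzb : z * (b : M3) = (b : M3) * z)
    (v : Fin 3 → F) (α ζ : F) (hα : α ^ 3 = 1) (hζ3 : ζ ^ 3 = 1) (hζ : ζ ≠ 1)
    (hav : (a : M3).mulVec v = α • v) (hzv : z.mulVec v = ζ • v) (i j : Fin 3) :
    Cfsg.hermForm 3 F q ((![v, (b : M3).mulVec v, (b : M3).mulVec ((b : M3).mulVec v)] :
        Fin 3 → Fin 3 → F) i)
      ((![v, (b : M3).mulVec v, (b : M3).mulVec ((b : M3).mulVec v)] : Fin 3 → Fin 3 → F) j)
      = if i = j then Cfsg.hermForm 3 F q v v else 0 := by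
  obtain ⟨-, -, -, hav1, hav2⟩ := A3U_rel (a : M3) (b : M3) z hb hab hzb v α ζ hav hzv
  have hα0 : α ≠ 0 := by
    rintro rfl
    simp at hα
  have hinj := A3U_inj α ζ hα0 hζ3 hζ
  have hcube : ∀ x : F, x ^ 3 = 1 → x ^ (q + 1) = 1 := by
    intro x hx
    obtain ⟨m, hm⟩ : 3 ∣ q + 1 := by omega
    rw [hm, pow_mul, hx, one_pow]
  have hμ : ∀ k : Fin 3, ((![α, α * ζ, α * ζ ^ 2] : Fin 3 → F) k) ^ (q + 1) = 1 := by
    intro k
    apply hcube
    fin_cases k
    · exact hα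
    · show (α * ζ) ^ 3 = 1
      rw [mul_pow, hα, hζ3, one_mul]
    · show (α * ζ ^ 2) ^ 3 = 1
      rw [mul_pow, hα, one_mul, ← pow_mul, mul_comm 2 3, pow_mul, hζ3, one_pow]
  have hV : ∀ k : Fin 3, (a : M3).mulVec
      ((![v, (b : M3).mulVec v, (b : M3).mulVec ((b : M3).mulVec v)] : Fin 3 → Fin 3 → F) k)
      = ((![α, α * ζ, α * ζ ^ 2] : Fin 3 → F) k) •
      ((![v, (b : M3).mulVec v, (b : M3).mulVec ((b : M3).mulVec v)] : Fin 3 → Fin 3 → F) k) := by
    intro k
    fin_cases k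
    · exact hav
    · exact hav1
    · exact hav2
  by_cases hij : i = j
  · subst hij
    rw [if_pos rfl]
    have h1 : ∀ u w : Fin 3 → F, Cfsg.hermForm 3 F q ((b : M3).mulVec u) ((b : M3).mulVec w)
        = Cfsg.hermForm 3 F q u w := hbU
    fin_cases i
    · rfl
    · exact h1 v v
    · exact (h1 _ _).trans (h1 v v)
  · rw [if_neg hij]
    exact U1 hF a haU _ _ _ _ (hV i) (hV j) (hμ j) (fun h => hij (hinj h))

theorem A3U [Fintype F] {q : ℕ} (hF : Fintype.card F = q ^ 2) (hq3 : q % 3 = 2) (a b z : GL (Fin 3) F)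
    (haU : a ∈ Cfsg.GU 3 F q) (hbU : b ∈ Cfsg.GU 3 F q) (hb : b ^ 3 = 1)
    (hab : a * b = z * (b * a)) (hzb : z * b = b * z)
    (v : Fin 3 → F) (α ζ : F) (hv : v ≠ 0) (hα : α ^ 3 = 1) (hζ3 : ζ ^ 3 = 1) (hζ : ζ ≠ 1)
    (hav : (a : M3).mulVec v = α • v) (hzv : (z : M3).mulVec v = ζ • v) :
    ∃ P ∈ Cfsg.GU 3 F q, (a : M3) = α • ((P : M3) * A0 ζ * ((P⁻¹ : GL (Fin 3) F) : M3)) ∧
      (b : M3) = (P : M3) * B0 * ((P⁻¹ : GL (Fin 3) F) : M3) ∧ (z : M3) = ζ • (1 : M3) := by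
  classical
  have hq0 : q ≠ 0 := by
    rintro rfl
    simp at hF
  have hb' : (b : M3) ^ 3 = 1 := by
    have := congrArg (fun g : GL (Fin 3) F => (g : M3)) hb
    simpa using this
  have hab' : (a : M3) * (b : M3) = (z : M3) * ((b : M3) * (a : M3)) := by
    have := congrArg (fun g : GL (Fin 3) F => (g : M3)) hab
    simpa using this
  have hzb' : (z : M3) * (b : M3) = (b : M3) * (z : M3) := by
    have := congrArg (fun g : GL (Fin 3) F => (g : M3)) hzb
    simpa using this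
  have hα0 : α ≠ 0 := by
    rintro rfl
    simp at hα
  -- `N ≠ 0`
  set N := Cfsg.hermForm 3 F q v v with hN
  have hgram := A3U_gram hF hq3 a b (z : M3) haU hbU hb' hab' hzb' v α ζ hα hζ3 hζ hav hzv
  obtain ⟨hbv2, hzv1, hzv2, hav1, hav2⟩ := A3U_rel (a : M3) (b : M3) (z : M3) hb' hab' hzb' v α ζ hav hzv
  have hN0 : N ≠ 0 := by
    intro hN0
    have hv1ne : (b : M3).mulVec v ≠ 0 := by
      intro h
      apply hv
      rw [← hbv2, h, Matrix.mulVec_zero, Matrix.mulVec_zero]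
    have hv2ne : (b : M3).mulVec ((b : M3).mulVec v) ≠ 0 := by
      intro h
      apply hv
      rw [← hbv2, h, Matrix.mulVec_zero]
    have hli : LinearIndependent F
        (![v, (b : M3).mulVec v, (b : M3).mulVec ((b : M3).mulVec v)] : Fin 3 → Fin 3 → F) := by
      apply Module.End.eigenvectors_linearIndependent' (Matrix.toLin' (a : M3))
        (![α, α * ζ, α * ζ ^ 2] : Fin 3 → F) (A3U_inj α ζ hα0 hζ3 hζ)
      intro i
      refine ⟨?_, ?_⟩
      · rw [Module.End.mem_eigenspace_iff, Matrix.toLin'_apply]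
        fin_cases i
        · exact hav
        · exact hav1
        · exact hav2
      · fin_cases i
        · exact hv
        · exact hv1ne
        · exact hv2ne
    let B := basisOfLinearIndependentOfCardEqFinrank hli (by simp)
    obtain ⟨⟨x, hx⟩, -⟩ := hermForm_nondegenerate (n := 3) hF v hv
    apply hx
    rw [← B.sum_repr x]
    have hsum : ∀ (c : Fin 3 → F) (Y : Fin 3 → Fin 3 → F), Cfsg.hermForm 3 F q (∑ i, c i • Y i) v
        = ∑ i, c i * Cfsg.hermForm 3 F q (Y i) v := by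
      intro c Y
      rw [Fin.sum_univ_three, Fin.sum_univ_three, hermForm_add_left, hermForm_add_left,
        hermForm_smul_left, hermForm_smul_left, hermForm_smul_left]
    rw [hsum]
    apply Finset.sum_eq_zero
    intro i _
    have h1 := hgram i 0
    rw [← hN, hN0, ite_self] at h1
    have h2 : B i = (![v, (b : M3).mulVec v, (b : M3).mulVec ((b : M3).mulVec v)] :
        Fin 3 → Fin 3 → F) i := by
      simp [B]
    rw [h2]
    have h3 : Cfsg.hermForm 3 F q ((![v, (b : M3).mulVec v, (b : M3).mulVec ((b : M3).mulVec v)] :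
        Fin 3 → Fin 3 → F) i) v = 0 := h1
    rw [h3, mul_zero]
  -- normalisation
  have hNq : N ^ q = N := hermForm_swap hF v v
  obtain ⟨s, hs⟩ := norm_surjective hF N⁻¹ (by rw [inv_pow, hNq])
  set v' := s • v with hv'
  have hav' : (a : M3).mulVec v' = α • v' := by
    rw [hv', Matrix.mulVec_smul, hav, smul_comm]
  have hzv' : (z : M3).mulVec v' = ζ • v' := by
    rw [hv', Matrix.mulVec_smul, hzv, smul_comm]
  have hN' : Cfsg.hermForm 3 F q v' v' = 1 := by
    rw [hv', hermForm_smul_left, hermForm_smul_right, ← mul_assoc, ← pow_succ', hs, ← hN,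
      inv_mul_cancel₀ hN0]
  have hgram' := A3U_gram hF hq3 a b (z : M3) haU hbU hb' hab' hzb' v' α ζ hα hζ3 hζ hav' hzv'
  simp only [hN'] at hgram'
  obtain ⟨hbv2', hzv1', hzv2', hav1', hav2'⟩ :=
    A3U_rel (a : M3) (b : M3) (z : M3) hb' hab' hzb' v' α ζ hav' hzv'
  obtain ⟨P, hP, hPX⟩ := U3 hF _ hgram'
  have hcol : ∀ (m : M3) r c, (m * (P : M3)) r c = (m.mulVec
      ((![v', (b : M3).mulVec v', (b : M3).mulVec ((b : M3).mulVec v')] :
        Fin 3 → Fin 3 → F) c)) r := by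
    intro m r c
    rw [Matrix.mul_apply, Matrix.mulVec, dotProduct]
    exact Finset.sum_congr rfl (fun k _ => by rw [hPX])
  have haP : (a : M3) * (P : M3) = α • ((P : M3) * A0 ζ) := by
    ext r c
    rw [hcol, Matrix.smul_apply, A0, Matrix.mul_diagonal, hPX]
    fin_cases c
    · show ((a : M3).mulVec v') r = _
      rw [hav']
      simp
    · show ((a : M3).mulVec ((b : M3).mulVec v')) r = _
      rw [hav1']
      simp
      ring
    · show ((a : M3).mulVec ((b : M3).mulVec ((b : M3).mulVec v'))) r = _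
      rw [hav2']
      simp
      ring
  have hbP : (b : M3) * (P : M3) = (P : M3) * B0 := by
    ext r c
    rw [hcol, Matrix.mul_apply, Fin.sum_univ_three, hPX, hPX, hPX]
    fin_cases c
    · show ((b : M3).mulVec v') r = _
      simp [B0]
    · show ((b : M3).mulVec ((b : M3).mulVec v')) r = _
      simp [B0]
    · show ((b : M3).mulVec ((b : M3).mulVec ((b : M3).mulVec v'))) r = _
      rw [hbv2']
      simp [B0]
  have hzP : (z : M3) * (P : M3) = ζ • (P : M3) := by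
    ext r c
    rw [hcol, Matrix.smul_apply, hPX]
    fin_cases c
    · show ((z : M3).mulVec v') r = _
      rw [hzv']
      simp
    · show ((z : M3).mulVec ((b : M3).mulVec v')) r = _
      rw [hzv1']
      simp
    · show ((z : M3).mulVec ((b : M3).mulVec ((b : M3).mulVec v'))) r = _
      rw [hzv2']
      simp
  have h2 : (P : M3) * ((P⁻¹ : GL (Fin 3) F) : M3) = 1 := Units.mul_inv P
  refine ⟨P, hP, ?_, ?_, ?_⟩
  · rw [← Matrix.smul_mul, ← haP, Matrix.mul_assoc, h2, Matrix.mul_one]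
  · rw [← hbP, Matrix.mul_assoc, h2, Matrix.mul_one]
  · calc (z : M3) = (z : M3) * ((P : M3) * ((P⁻¹ : GL (Fin 3) F) : M3)) := by
          rw [h2, Matrix.mul_one]
      _ = (ζ • (P : M3)) * ((P⁻¹ : GL (Fin 3) F) : M3) := by rw [← Matrix.mul_assoc, hzP]
      _ = ζ • (1 : M3) := by rw [Matrix.smul_mul, h2]

end Cfsg.Agent.Lib.Helper99.X3
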