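import Cfsg.Agent.Lib.Helper99.X3.Defs
import Cfsg.Prelude.Def_LieClassical
import Cfsg.Agent.Lib.Helper22.X3.A1a
import Cfsg.Agent.Lib.Helper22.X3.A1b
import Cfsg.Agent.Lib.Helper89.X3.A2
import Cfsg.Agent.Lib.Helper89.X3.A3U
import Cfsg.Agent.Lib.Helper74.X3.A4

set_option autoImplicit false
open scoped MatrixGroups

namespace Cfsg.Agent.Lib.Helper99.X3

variable {F : Type*} [Field F]

local notation "M3" => Matrix (Fin 3) (Fin 3) F

/-- adapted from helper74's `A4` -/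
theorem A4U [Fintype F] {q : ℕ} (hF : Fintype.card F = q ^ 2) (hq3 : q % 3 = 2)
    (R : Subgroup (GL (Fin 3) F)) (hRU : R ≤ Cfsg.GU 3 F q) (hR : Nat.card R = 27)
    (hRe : Monoid.exponent R = 3) (hRna : ¬ IsMulCommutative R) (ω : F) (hω : ω ≠ 1) (hω3 : ω ^ 3 = 1) :
    ∃ (ζ : F) (P a b : GL (Fin 3) F), Std R ζ P a b ∧ P ∈ Cfsg.GU 3 F q := by
  obtain ⟨a, b, z, ha, hb, hz, hz1, hab, hza, hzb⟩ := A1a R hR hRna
  have hcube' : ∀ g ∈ R, (g : GL (Fin 3) F) ^ 3 = 1 := by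
    intro g hg
    have h1 := Monoid.pow_exponent_eq_one (⟨g, hg⟩ : R)
    rw [hRe] at h1
    simpa using congrArg Subtype.val h1
  have hcube : ∀ g ∈ R, ((g : GL (Fin 3) F) : M3) ^ 3 = 1 := by
    intro g hg
    rw [← Units.val_pow_eq_pow_val, hcube' g hg, Units.val_one]
  have hz1' : (z : M3) ≠ 1 := fun h => hz1 (Units.ext h)
  have hza' : (z : M3) * (a : M3) = (a : M3) * (z : M3) := by
    rw [← Units.val_mul, ← Units.val_mul, hza]
  obtain ⟨v, α, ζ, hv, hα3, hζ3, hζ, hav, hzv⟩ :=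
    A2 ω hω hω3 (a : M3) (z : M3) (hcube a ha) (hcube z hz) hz1' hza'
  obtain ⟨P, hPU, hPa, hPb, hPz⟩ := A3U hF hq3 a b z (hRU ha) (hRU hb) (hcube' b hb) hab hzb v α ζ hv
    hα3 hζ3 hζ hav hzv
  obtain ⟨m, hm⟩ := A4_root α ζ hα3 hζ3 hζ
  have ha'R : z ^ m * a ∈ R := R.mul_mem (R.pow_mem hz m) ha
  have hzmb : z ^ m * b = b * z ^ m := ((show Commute z b from hzb).pow_left m)
  have hne : z ^ m * a * b ≠ b * (z ^ m * a) := by
    intro h
    apply hz1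
    have h1 : z ^ m * a * b = z * (b * (z ^ m * a)) := by
      calc z ^ m * a * b = z ^ m * (a * b) := by rw [mul_assoc]
        _ = z ^ m * (z * (b * a)) := by rw [hab]
        _ = z * (z ^ m * b * a) := by
            rw [← mul_assoc, ← mul_assoc, ← pow_succ, pow_succ', mul_assoc, mul_assoc, mul_assoc]
        _ = z * (b * (z ^ m * a)) := by rw [hzmb, mul_assoc]
    rw [h] at h1
    exact (mul_eq_right.1 h1.symm)
  refine ⟨ζ, P, z ^ m * a, b, ⟨hζ, hζ3, A1b R hR _ b ha'R hb hne, ?_, hPb⟩, hPU⟩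
  rw [Units.val_mul, Units.val_pow_eq_pow_val, hPz, hPa, smul_pow, one_pow, smul_mul_assoc, one_mul,
    smul_smul, hm, one_smul]

end Cfsg.Agent.Lib.Helper99.X3
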