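import Cfsg.Agent.Lib.Helper99.X3.Defs

set_option autoImplicit false
open scoped MatrixGroups

namespace Cfsg.Agent.Lib.Helper99.X3

variable {F : Type*} [Field F]

local notation "M3" => Matrix (Fin 3) (Fin 3) F

/-- a matrix whose eigenvectors (with eigenvalues satisfying `P`) span is diagonalisable -/
theorem DG_aux (P : F → Prop) (y : M3)
    (hspan : Submodule.span F {c : Fin 3 → F | ∃ μ, P μ ∧ y.mulVec c = μ • c} = ⊤) :
    ∃ (Q : GL (Fin 3) F) (l : Fin 3 → F), (∀ i, P (l i)) ∧
      y = (Q : M3) * Matrix.diagonal l * ((Q⁻¹ : GL (Fin 3) F) : M3) := by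
  classical
  obtain ⟨b, hbt, hbspan, hbli⟩ :=
    exists_linearIndependent F {c : Fin 3 → F | ∃ μ, P μ ∧ y.mulVec c = μ • c}
  let B : Module.Basis ↥b F (Fin 3 → F) := Module.Basis.mk hbli (by
    rw [Subtype.range_coe, hbspan, hspan])
  have hfin : Finite ↥b := Module.Finite.finite_basis B
  have := Fintype.ofFinite ↥b
  have hcard : Fintype.card ↥b = 3 := by
    rw [← Module.finrank_eq_card_basis B, Module.finrank_fin_fun]
  let e : ↥b ≃ Fin 3 := Fintype.equivFinOfCardEq hcard
  let B' : Module.Basis (Fin 3) F (Fin 3 → F) := B.reindex e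
  have hB' : ∀ i, ∃ μ, P μ ∧ y.mulVec (B' i) = μ • B' i := by
    intro i
    have h1 : B' i = ((e.symm i : ↥b) : Fin 3 → F) := by
      simp [B', B]
    rw [h1]
    exact hbt (e.symm i).2
  choose l hl1 hl2 using hB'
  let Qm : M3 := Matrix.of (fun r c => B' c r)
  have hU : IsUnit Qm := by
    rw [← Matrix.linearIndependent_cols_iff_isUnit]
    have : Qm.col = B' := by
      funext c r
      rfl
    rw [this]
    exact B'.linearIndependent
  have hyQ : y * Qm = Qm * Matrix.diagonal l := by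
    ext r c
    rw [Matrix.mul_diagonal]
    have h1 : (y * Qm) r c = (y.mulVec (B' c)) r := rfl
    rw [h1, hl2]
    simp [Qm, mul_comm]
  refine ⟨hU.unit, l, hl1, ?_⟩
  have h1 : ((hU.unit : GL (Fin 3) F) : M3) = Qm := rfl
  have h2 : Qm * (((hU.unit)⁻¹ : GL (Fin 3) F) : M3) = 1 := by
    have := Units.mul_inv hU.unit
    rwa [h1] at this
  rw [h1, ← hyQ, Matrix.mul_assoc, h2, Matrix.mul_one]

end Cfsg.Agent.Lib.Helper99.X3
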