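import Cfsg.Agent.Lib.Helper99.X3.Defs
import Cfsg.Agent.Lib.Helper89.X3.DGaux

set_option autoImplicit false
open scoped MatrixGroups

namespace Cfsg.Agent.Lib.Helper99.X3

variable {F : Type*} [Field F]

local notation "M3" => Matrix (Fin 3) (Fin 3) F

theorem DG2 (h2 : (2 : F) ≠ 0) (y : M3) (hy : y ^ 2 = 1) :
    ∃ (Q : GL (Fin 3) F) (l : Fin 3 → F), (∀ i, l i = 1 ∨ l i = -1) ∧
      y = (Q : M3) * Matrix.diagonal l * ((Q⁻¹ : GL (Fin 3) F) : M3) := by
  apply DG_aux (fun μ => μ = 1 ∨ μ = -1) y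
  rw [eq_top_iff]
  intro v _
  have hyy : y.mulVec (y.mulVec v) = v := by
    rw [Matrix.mulVec_mulVec, ← pow_two, hy, Matrix.one_mulVec]
  have hv : v = (2 : F)⁻¹ • (v + y.mulVec v) + (2 : F)⁻¹ • (v - y.mulVec v) := by
    rw [← smul_add, add_add_sub_cancel, ← two_smul F v, smul_smul, inv_mul_cancel₀ h2, one_smul]
  rw [hv]
  apply Submodule.add_mem
  · apply Submodule.subset_span
    refine ⟨1, Or.inl rfl, ?_⟩
    rw [Matrix.mulVec_smul, Matrix.mulVec_add, hyy, one_smul, add_comm]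
  · apply Submodule.subset_span
    refine ⟨-1, Or.inr rfl, ?_⟩
    rw [Matrix.mulVec_smul, Matrix.mulVec_sub, hyy, smul_comm, neg_one_smul, neg_sub]

end Cfsg.Agent.Lib.Helper99.X3
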