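import Cfsg.Agent.Lib.Helper99.X3.Defs
import Cfsg.Agent.Lib.Helper89.X3.DGaux

set_option autoImplicit false
open scoped MatrixGroups

namespace Cfsg.Agent.Lib.Helper99.X3

variable {F : Type*} [Field F]

local notation "M3" => Matrix (Fin 3) (Fin 3) F

theorem DG3 (ζ : F) (hζ : ζ ≠ 1) (hζ3 : ζ ^ 3 = 1) (y : M3) (hy : y ^ 3 = 1) :
    ∃ (Q : GL (Fin 3) F) (l : Fin 3 → F), (∀ i, l i ^ 3 = 1) ∧
      y = (Q : M3) * Matrix.diagonal l * ((Q⁻¹ : GL (Fin 3) F) : M3) := by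
  have h0 : 1 + ζ + ζ ^ 2 = 0 := by
    have h : (ζ - 1) * (1 + ζ + ζ ^ 2) = 0 := by linear_combination hζ3
    rcases mul_eq_zero.1 h with h | h
    · exact absurd (sub_eq_zero.1 h) hζ
    · exact h
  have h3 : (3 : F) ≠ 0 := by
    intro h3
    have h : (ζ - 1) ^ 3 = 0 := by linear_combination hζ3 + (ζ - ζ ^ 2) * h3
    exact hζ (sub_eq_zero.1 (pow_eq_zero_iff (by norm_num) |>.1 h))
  apply DG_aux (fun μ => μ ^ 3 = 1) y
  rw [eq_top_iff]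
  intro v _
  set v1 := y.mulVec v with hv1
  set v2 := y.mulVec v1 with hv2
  have hyyy : y.mulVec v2 = v := by
    rw [hv2, hv1, Matrix.mulVec_mulVec, Matrix.mulVec_mulVec, ← pow_two, ← pow_succ, hy,
      Matrix.one_mulVec]
  -- the component for the eigenvalue `μ`
  have hcomp : ∀ μ : F, μ ^ 3 = 1 → (3 : F)⁻¹ • (v + μ ^ 2 • v1 + μ • v2) ∈
      Submodule.span F {c : Fin 3 → F | ∃ μ : F, μ ^ 3 = 1 ∧ y.mulVec c = μ • c} := by
    intro μ hμ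
    apply Submodule.subset_span
    refine ⟨μ, hμ, ?_⟩
    rw [Matrix.mulVec_smul, Matrix.mulVec_add, Matrix.mulVec_add, Matrix.mulVec_smul,
      Matrix.mulVec_smul, ← hv1, ← hv2, hyyy, smul_comm μ]
    congr 1
    rw [smul_add, smul_add, smul_smul, smul_smul, ← pow_succ', hμ, one_smul, ← pow_two]
    abel
  have hv : v = (3 : F)⁻¹ • (v + (1 : F) ^ 2 • v1 + (1 : F) • v2)
      + (3 : F)⁻¹ • (v + ζ ^ 2 • v1 + ζ • v2)
      + (3 : F)⁻¹ • (v + (ζ ^ 2) ^ 2 • v1 + (ζ ^ 2) • v2) := by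
    have e1 : (v + (1 : F) ^ 2 • v1 + (1 : F) • v2) + (v + ζ ^ 2 • v1 + ζ • v2)
        + (v + (ζ ^ 2) ^ 2 • v1 + (ζ ^ 2) • v2)
        = (3 : F) • v + ((1 : F) ^ 2 + ζ ^ 2 + (ζ ^ 2) ^ 2) • v1 + (1 + ζ + ζ ^ 2) • v2 := by
      module
    have e2 : (1 : F) ^ 2 + ζ ^ 2 + (ζ ^ 2) ^ 2 = 0 := by
      linear_combination h0 + ζ * hζ3
    rw [← smul_add, ← smul_add, e1, e2, h0, zero_smul, zero_smul, add_zero, add_zero, smul_smul,
      inv_mul_cancel₀ h3, one_smul]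
  rw [hv]
  exact Submodule.add_mem _ (Submodule.add_mem _ (hcomp 1 (one_pow 3)) (hcomp ζ hζ3))
    (hcomp (ζ ^ 2) (by rw [← pow_mul, mul_comm, pow_mul, hζ3, one_pow]))

end Cfsg.Agent.Lib.Helper99.X3
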