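import Cfsg.Agent.Lib.Helper99.X3.Defs
import Cfsg.Prelude.Def_LieClassical
import Cfsg.Agent.Lib.Helper9.AschU.Base
import Cfsg.Agent.Lib.Helper5.GUNondegStab
import Cfsg.Agent.Lib.Helper5.SUSmall.E6cN
import Cfsg.Agent.Lib.Helper74.X3.U1
import Cfsg.Agent.Lib.Helper74.X3.U3

set_option autoImplicit false
open scoped MatrixGroups

namespace Cfsg.Agent.Lib.Helper99.X3

open Cfsg.Agent.Lib.Helper13 Cfsg.Agent.Lib.Helper9.AschU

variable {F : Type*} [Field F]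

local notation "M3" => Matrix (Fin 3) (Fin 3) F

/-- from an orthonormal family of eigenvectors to a unitary diagonalisation -/
theorem DGU_of_frame [Fintype F] {q : ℕ} (hF : Fintype.card F = q ^ 2) (y : M3)
    (X : Fin 3 → Fin 3 → F) (l : Fin 3 → F)
    (hX : ∀ i j, Cfsg.hermForm 3 F q (X i) (X j) = if i = j then 1 else 0)
    (hy : ∀ i, y.mulVec (X i) = l i • X i) :
    ∃ Q ∈ Cfsg.GU 3 F q, y = (Q : M3) * Matrix.diagonal l * ((Q⁻¹ : GL (Fin 3) F) : M3) := by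
  obtain ⟨Q, hQ, hQX⟩ := U3 hF X hX
  refine ⟨Q, hQ, ?_⟩
  have hyQ : y * (Q : M3) = (Q : M3) * Matrix.diagonal l := by
    ext r c
    rw [Matrix.mul_diagonal]
    have h1 : (y * (Q : M3)) r c = (y.mulVec (X c)) r := by
      rw [Matrix.mul_apply, Matrix.mulVec, dotProduct]
      exact Finset.sum_congr rfl (fun k _ => by rw [hQX])
    rw [h1, hy, hQX]
    simp [mul_comm]
  have h2 : (Q : M3) * ((Q⁻¹ : GL (Fin 3) F) : M3) = 1 := Units.mul_inv Q
  rw [← hyQ, Matrix.mul_assoc, h2, Matrix.mul_one]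

theorem DGU [Fintype F] {q : ℕ} (hF : Fintype.card F = q ^ 2) (y : GL (Fin 3) F) (hy : y ∈ Cfsg.GU 3 F q)
    (Q₀ : GL (Fin 3) F) (l₀ : Fin 3 → F) (hl₀ : ∀ i, l₀ i ^ (q + 1) = 1)
    (hQ₀ : (y : M3) = (Q₀ : M3) * Matrix.diagonal l₀ * ((Q₀⁻¹ : GL (Fin 3) F) : M3)) :
    ∃ Q ∈ Cfsg.GU 3 F q, ∃ l : Fin 3 → F, (∀ i, ∃ j, l i = l₀ j) ∧
      (y : M3) = (Q : M3) * Matrix.diagonal l * ((Q⁻¹ : GL (Fin 3) F) : M3) := by
  classical
  -- the columns of `Q₀`
  let C : Fin 3 → Fin 3 → F := fun j r => (Q₀ : M3) r j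
  have hinv : ((Q₀⁻¹ : GL (Fin 3) F) : M3) * (Q₀ : M3) = 1 := Units.inv_mul Q₀
  have hinv' : (Q₀ : M3) * ((Q₀⁻¹ : GL (Fin 3) F) : M3) = 1 := Units.mul_inv Q₀
  have hyQ : (y : M3) * (Q₀ : M3) = (Q₀ : M3) * Matrix.diagonal l₀ := by
    rw [hQ₀, Matrix.mul_assoc, hinv, Matrix.mul_one]
  have hC : ∀ j, (y : M3).mulVec (C j) = l₀ j • C j := by
    intro j
    funext r
    have h1 := congrFun (congrFun hyQ r) j
    rw [Matrix.mul_diagonal] at h1
    have h2 : ((y : M3) * (Q₀ : M3)) r j = ((y : M3).mulVec (C j)) r := rfl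
    rw [← h2, h1]
    simp [C, mul_comm]
  have hdecomp : ∀ v : Fin 3 → F, ∃ c : Fin 3 → F, v = ∑ j, c j • C j := by
    intro v
    refine ⟨((Q₀⁻¹ : GL (Fin 3) F) : M3).mulVec v, ?_⟩
    have h1 : v = (Q₀ : M3).mulVec (((Q₀⁻¹ : GL (Fin 3) F) : M3).mulVec v) := by
      rw [Matrix.mulVec_mulVec, hinv', Matrix.one_mulVec]
    conv_lhs => rw [h1]
    funext r
    simp [Matrix.mulVec, dotProduct, C, mul_comm]
  -- eigenspaces
  let W : F → Submodule F (Fin 3 → F) := fun μ => Module.End.eigenspace (Matrix.toLin' (y : M3)) μ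
  have hW : ∀ μ v, v ∈ W μ ↔ (y : M3).mulVec v = μ • v := by
    intro μ v
    show v ∈ Module.End.eigenspace (Matrix.toLin' (y : M3)) μ ↔ _
    rw [Module.End.mem_eigenspace_iff, Matrix.toLin'_apply]
  let S : Finset F := Finset.univ.image l₀
  have hS : ∀ μ ∈ S, ∃ j, μ = l₀ j := by
    intro μ hμ
    obtain ⟨j, -, hj⟩ := Finset.mem_image.1 hμ
    exact ⟨j, hj.symm⟩
  have hSpow : ∀ μ ∈ S, μ ^ (q + 1) = 1 := by
    intro μ hμ
    obtain ⟨j, rfl⟩ := hS μ hμ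
    exact hl₀ j
  -- nondegeneracy
  have hnd : ∀ μ ∈ S, ∀ u ∈ W μ, (∀ v ∈ W μ, Cfsg.hermForm 3 F q u v = 0) → u = 0 := by
    intro μ hμ u hu hort
    by_contra hu0
    obtain ⟨⟨x, hx⟩, -⟩ := hermForm_nondegenerate (n := 3) hF u hu0
    apply hx
    obtain ⟨c, rfl⟩ := hdecomp x
    rw [Cfsg.Agent.Lib.Helper5.SUSmall.E6cN.herm_sum_left]
    apply Finset.sum_eq_zero
    intro j _
    by_cases hj : l₀ j = μ
    · have h1 : C j ∈ W μ := by rw [hW, ← hj]; exact hC j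
      rw [← hermForm_swap hF, hort _ h1, zero_pow (by
        rintro rfl
        simp at hF), mul_zero]
    · rw [U1 hF y hy (C j) u (l₀ j) μ (hC j) ((hW μ u).1 hu) (hSpow μ hμ) hj, mul_zero]
  -- frames
  have hframe : ∀ μ : ↥S, ∃ x : Fin (Module.finrank F (W μ)) → Fin 3 → F,
      Submodule.span F (Set.range x) = W μ ∧
      ∀ a b, Cfsg.hermForm 3 F q (x a) (x b) = if a = b then 1 else 0 := by
    intro μ
    obtain ⟨x, -, hx2, hx3⟩ := Cfsg.Agent.Lib.Helper5.exists_orthonormal_frame hF 3 _ (W μ) rfl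
      (hnd μ.1 μ.2)
    refine ⟨x, hx2, fun a b => ?_⟩
    rw [hx3, hermForm_single_left]
    by_cases hab : a = b
    · subst hab
      simp
    · rw [if_neg hab, Pi.single_apply, if_neg hab, zero_pow]
      rintro rfl
      simp at hF
  choose x hx2 hx3 using hframe
  let X : (Σ μ : ↥S, Fin (Module.finrank F (W μ))) → Fin 3 → F := fun s => x s.1 s.2
  have hXmem : ∀ s, X s ∈ W s.1 := by
    intro s
    rw [← hx2 s.1]
    exact Submodule.subset_span ⟨s.2, rfl⟩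
  have hXon : ∀ s t, Cfsg.hermForm 3 F q (X s) (X t) = if s = t then 1 else 0 := by
    rintro ⟨μ, a⟩ ⟨ν, b⟩
    by_cases hμν : μ = ν
    · subst hμν
      show Cfsg.hermForm 3 F q (x μ a) (x μ b) = _
      rw [hx3]
      by_cases hab : a = b
      · subst hab; simp
      · rw [if_neg hab, if_neg]
        intro h
        apply hab
        simpa using h
    · rw [if_neg (fun h => hμν (congrArg Sigma.fst h))]
      exact U1 hF y hy _ _ μ.1 ν.1 ((hW _ _).1 (hXmem ⟨μ, a⟩)) ((hW _ _).1 (hXmem ⟨ν, b⟩))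
        (hSpow ν.1 ν.2) (fun h => hμν (Subtype.ext h))
  have hli : LinearIndependent F X := Cfsg.Agent.Lib.Helper5.SUSmall.E6cN.li_of_orthonormal X hXon
  have hspan : ⊤ ≤ Submodule.span F (Set.range X) := by
    intro v _
    obtain ⟨c, rfl⟩ := hdecomp v
    apply Submodule.sum_mem
    intro j _
    apply Submodule.smul_mem
    have hjS : l₀ j ∈ S := Finset.mem_image.2 ⟨j, Finset.mem_univ _, rfl⟩
    have h1 : C j ∈ W (⟨l₀ j, hjS⟩ : ↥S) := (hW _ _).2 (hC j)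
    rw [← hx2] at h1
    refine Submodule.span_mono ?_ h1
    rintro _ ⟨a, rfl⟩
    exact ⟨⟨⟨l₀ j, hjS⟩, a⟩, rfl⟩
  let B := Module.Basis.mk hli hspan
  have hcard : Fintype.card (Σ μ : ↥S, Fin (Module.finrank F (W μ))) = 3 := by
    rw [← Module.finrank_eq_card_basis B, Module.finrank_fin_fun]
  let e : Fin 3 ≃ (Σ μ : ↥S, Fin (Module.finrank F (W μ))) := (Fintype.equivFinOfCardEq hcard).symm
  obtain ⟨Q, hQ, hQy⟩ := DGU_of_frame hF (y : M3) (fun i => X (e i)) (fun i => ((e i).1 : F))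
    (fun i j => by
      rw [hXon]
      by_cases hij : i = j
      · subst hij; simp
      · rw [if_neg hij, if_neg (fun h => hij (e.injective h))])
    (fun i => (hW _ _).1 (hXmem (e i)))
  exact ⟨Q, hQ, fun i => ((e i).1 : F), fun i => hS _ (e i).1.2, hQy⟩

end Cfsg.Agent.Lib.Helper99.X3
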