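import Cfsg.Agent.Lib.Helper99.X3.Defs

set_option autoImplicit false
open scoped MatrixGroups

namespace Cfsg.Agent.Lib.Helper99.X3

variable {F : Type*} [Field F]

local notation "M3" => Matrix (Fin 3) (Fin 3) F

theorem I2_aux (S : M3) (hdet : S.det ≠ 0) (c : F) (hc : c * c = 1) (l : Fin 3 → F)
    (h : S * T0 = c • (Matrix.diagonal l * S)) :
    ∃ (c : F) (T : GL (Fin 3) F), c ≠ 0 ∧
      Matrix.diagonal l = c • ((T : M3) * T0 * ((T⁻¹ : GL (Fin 3) F) : M3)) := by
  refine ⟨c, Matrix.GeneralLinearGroup.mkOfDetNeZero S hdet, ?_, ?_⟩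
  · rintro rfl
    simp at hc
  · have hS : ((Matrix.GeneralLinearGroup.mkOfDetNeZero S hdet : GL (Fin 3) F) : M3) = S := rfl
    have hinv : S * (((Matrix.GeneralLinearGroup.mkOfDetNeZero S hdet)⁻¹ : GL (Fin 3) F) : M3) = 1 := by
      have := Units.mul_inv (Matrix.GeneralLinearGroup.mkOfDetNeZero S hdet)
      rwa [hS] at this
    rw [hS, h, Matrix.smul_mul, Matrix.mul_assoc, hinv, Matrix.mul_one, smul_smul, hc, one_smul]

theorem I2 (h2 : (2 : F) ≠ 0) (l : Fin 3 → F) (hl : ∀ i, l i = 1 ∨ l i = -1)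
    (hns : ¬ (l 0 = l 1 ∧ l 1 = l 2)) :
    ∃ (c : F) (T : GL (Fin 3) F), c ≠ 0 ∧
      Matrix.diagonal l = c • ((T : M3) * T0 * ((T⁻¹ : GL (Fin 3) F) : M3)) := by
  have hm2 : (-2 : F) ≠ 0 := neg_ne_zero.2 h2
  have d1 : (!![1, 0, 0; 0, 1, 1; 0, 1, -1] : M3).det ≠ 0 := by
    rw [Matrix.det_fin_three]; simp; norm_num; exact h2
  have d2 : (!![1, 0, 0; 0, 1, -1; 0, 1, 1] : M3).det ≠ 0 := by
    rw [Matrix.det_fin_three]; simp; norm_num; exact h2
  have d3 : (!![0, 1, -1; 1, 0, 0; 0, 1, 1] : M3).det ≠ 0 := by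
    rw [Matrix.det_fin_three]; simp; norm_num; exact h2
  rcases hl 0 with h0 | h0 <;> rcases hl 1 with h1 | h1 <;> rcases hl 2 with h2' | h2'
  · exact absurd ⟨h0.trans h1.symm, h1.trans h2'.symm⟩ hns
  · apply I2_aux _ d1 1 (by norm_num) l
    ext i j
    fin_cases i <;> fin_cases j <;>
      simp [T0, Matrix.mul_apply, Fin.sum_univ_three, Matrix.diagonal_apply, h0, h1, h2']
  · apply I2_aux _ d2 1 (by norm_num) l
    ext i j
    fin_cases i <;> fin_cases j <;>
      simp [T0, Matrix.mul_apply, Fin.sum_univ_three, Matrix.diagonal_apply, h0, h1, h2']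
  · apply I2_aux _ d3 (-1) (by norm_num) l
    ext i j
    fin_cases i <;> fin_cases j <;>
      simp [T0, Matrix.mul_apply, Fin.sum_univ_three, Matrix.diagonal_apply, h0, h1, h2']
  · apply I2_aux _ d3 1 (by norm_num) l
    ext i j
    fin_cases i <;> fin_cases j <;>
      simp [T0, Matrix.mul_apply, Fin.sum_univ_three, Matrix.diagonal_apply, h0, h1, h2']
  · apply I2_aux _ d2 (-1) (by norm_num) l
    ext i j
    fin_cases i <;> fin_cases j <;>
      simp [T0, Matrix.mul_apply, Fin.sum_univ_three, Matrix.diagonal_apply, h0, h1, h2']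
  · apply I2_aux _ d1 (-1) (by norm_num) l
    ext i j
    fin_cases i <;> fin_cases j <;>
      simp [T0, Matrix.mul_apply, Fin.sum_univ_three, Matrix.diagonal_apply, h0, h1, h2']
  · exact absurd ⟨h0.trans h1.symm, h1.trans h2'.symm⟩ hns

end Cfsg.Agent.Lib.Helper99.X3
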