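import Cfsg.Agent.Lib.Helper99.X3.Defs
import Cfsg.Prelude.Def_LieClassical
import Cfsg.Agent.Lib.Helper9.AschU.Base
import Cfsg.Agent.Lib.Helper74.X3.U3

set_option autoImplicit false
open scoped MatrixGroups

namespace Cfsg.Agent.Lib.Helper99.X3

open Cfsg.Agent.Lib.Helper13 Cfsg.Agent.Lib.Helper9.AschU

variable {F : Type*} [Field F]

local notation "M3" => Matrix (Fin 3) (Fin 3) F

theorem I2U_main [Fintype F] {q : ℕ} (hF : Fintype.card F = q ^ 2) (h2 : (2 : F) ≠ 0)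
    (σ : Equiv.Perm (Fin 3)) (c : F) (hc : c * c = 1) (l : Fin 3 → F)
    (h : ∀ k, (![1, 1, -1] : Fin 3 → F) (σ k) = c * l k) :
    ∃ (c : F), ∃ T ∈ Cfsg.GU 3 F q, c ≠ 0 ∧
      Matrix.diagonal l = c • ((T : M3) * T0 * ((T⁻¹ : GL (Fin 3) F) : M3)) := by
  classical
  have hq0 : q ≠ 0 := by
    rintro rfl
    simp at hF
  have h0q : (0 : F) ^ q = 0 := zero_pow hq0
  have h2q : (2 : F) ^ q = 2 := by
    have : (2 : F) = 1 + 1 := by norm_num
    rw [this, add_pow_q hF, one_pow]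
  obtain ⟨s, hs⟩ := norm_surjective hF (2 : F)⁻¹ (by rw [inv_pow, h2q])
  have hA : 2 * (s * s ^ q) = 1 := by
    rw [← pow_succ', hs, mul_inv_cancel₀ h2]
  have hneg : (-s) ^ q = -(s ^ q) := neg_pow_q hF s
  let X₀ : Fin 3 → Fin 3 → F := ![![1, 0, 0], ![0, s, s], ![0, s, -s]]
  have hX₀ : ∀ i j, Cfsg.hermForm 3 F q (X₀ i) (X₀ j) = if i = j then 1 else 0 := by
    intro i j
    fin_cases i <;> fin_cases j <;>
      simp [X₀, Cfsg.hermForm, Fin.sum_univ_three, h0q, hneg]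
    · linear_combination hA
    · linear_combination hA
  have hT₀ : ∀ m, (T0 : M3).mulVec (X₀ m) = (![1, 1, -1] : Fin 3 → F) m • X₀ m := by
    intro m
    funext r
    fin_cases m <;> fin_cases r <;>
      simp [X₀, T0, Matrix.mulVec, dotProduct, Fin.sum_univ_three]
  obtain ⟨P, hP, hPX⟩ := U3 hF (fun k => X₀ (σ k)) (by
    intro i j
    rw [hX₀]
    by_cases hij : i = j
    · subst hij; simp
    · rw [if_neg hij, if_neg (fun h' => hij (σ.injective h'))])
  have hTP : (T0 : M3) * (P : M3) = c • ((P : M3) * Matrix.diagonal l) := by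
    ext r k
    rw [Matrix.smul_apply, Matrix.mul_diagonal, hPX]
    have h1 : ((T0 : M3) * (P : M3)) r k = ((T0 : M3).mulVec (X₀ (σ k))) r := by
      rw [Matrix.mul_apply, Matrix.mulVec, dotProduct]
      exact Finset.sum_congr rfl (fun m _ => by rw [hPX])
    rw [h1, hT₀, h k]
    simp
    ring
  refine ⟨c, P⁻¹, (Cfsg.GU 3 F q).inv_mem hP, ?_, ?_⟩
  · rintro rfl
    simp at hc
  · have h3 : ((P⁻¹ : GL (Fin 3) F) : M3) * (P : M3) = 1 := Units.inv_mul P
    rw [inv_inv, Matrix.mul_assoc, hTP, Matrix.mul_smul, ← Matrix.mul_assoc, h3, Matrix.one_mul,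
      smul_smul, hc, one_smul]

theorem I2U [Fintype F] {q : ℕ} (hF : Fintype.card F = q ^ 2) (h2 : (2 : F) ≠ 0) (l : Fin 3 → F)
    (hl : ∀ i, l i = 1 ∨ l i = -1) (hns : ¬ (l 0 = l 1 ∧ l 1 = l 2)) :
    ∃ (c : F), ∃ T ∈ Cfsg.GU 3 F q, c ≠ 0 ∧
      Matrix.diagonal l = c • ((T : M3) * T0 * ((T⁻¹ : GL (Fin 3) F) : M3)) := by
  rcases hl 0 with h0 | h0 <;> rcases hl 1 with h1 | h1 <;> rcases hl 2 with h2' | h2'
  · exact absurd ⟨h0.trans h1.symm, h1.trans h2'.symm⟩ hns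
  · apply I2U_main hF h2 1 1 (by norm_num) l
    intro k
    fin_cases k <;> simp [h0, h1, h2']
  · apply I2U_main hF h2 (Equiv.swap 1 2) 1 (by norm_num) l
    intro k
    fin_cases k <;> simp [h0, h1, h2', Equiv.swap_apply_def]
  · apply I2U_main hF h2 (Equiv.swap 0 2) (-1) (by norm_num) l
    intro k
    fin_cases k <;> simp [h0, h1, h2', Equiv.swap_apply_def]
  · apply I2U_main hF h2 (Equiv.swap 0 2) 1 (by norm_num) l
    intro k
    fin_cases k <;> simp [h0, h1, h2', Equiv.swap_apply_def]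
  · apply I2U_main hF h2 (Equiv.swap 1 2) (-1) (by norm_num) l
    intro k
    fin_cases k <;> simp [h0, h1, h2', Equiv.swap_apply_def]
  · apply I2U_main hF h2 1 (-1) (by norm_num) l
    intro k
    fin_cases k <;> simp [h0, h1, h2']
  · exact absurd ⟨h0.trans h1.symm, h1.trans h2'.symm⟩ hns

end Cfsg.Agent.Lib.Helper99.X3
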